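import Mathlib
import Cfsg.Agent.S0688
import Cfsg.Agent.Lib.Helper49.HUP.Defs

/-!
# HUP (S3361): package [BRIDGE] -- no normal cyclic irreducible subgroup forces
`|V| ∈ {25, 49, 121, 529}` (from the landed S0688).
-/

set_option autoImplicit false

namespace Cfsg.Agent.Lib.Helper80.HUP

open Cfsg.Agent.Lib.Helper49.HUP

universe u v

theorem pkgBridge : PkgBridge.{u, v} := by
  intro q _ V _ _ _ _ G _ _ ρ hreg hsol hno
  obtain ⟨hinj, htrans, hfix⟩ := hreg
  have hsol' : Group.IsSolvable G := hsol
  have hsurj : Function.Surjective ρ.rangeRestrict := ρ.rangeRestrict_surjective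
  have hinj' : Function.Injective ρ.rangeRestrict := by
    intro a b hab
    apply hinj
    exact congrArg Subtype.val hab
  have hmain := Cfsg.Agent.S0688.result (p := q) (V := V) ρ.range ?_ ?_ ?_
  · rcases hmain with h | h | h | h <;> simp [h]
  · -- regularity
    intro v w hv hw
    obtain ⟨g, hg⟩ := htrans v w hv hw
    refine ⟨⟨ρ g, ⟨g, rfl⟩⟩, hg, ?_⟩
    rintro ⟨h', ⟨g', rfl⟩⟩ hh'
    have hh'' : ρ g' v = w := hh'
    have h1 : ρ (g⁻¹ * g') v = v := by
      rw [map_mul, map_inv, LinearEquiv.mul_apply, hh'', ← hg]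
      exact (ρ g).symm_apply_apply v
    have h2 := hfix v hv _ h1
    have h3 : g' = g := by
      rw [inv_mul_eq_one] at h2
      exact h2.symm
    subst h3
    rfl
  · -- no irreducible normal cyclic subgroup
    intro A' hA'n hA'c
    have hAn : (A'.comap ρ.rangeRestrict).Normal := hA'n.comap _
    have hAc : IsCyclic (A'.comap ρ.rangeRestrict) := by
      have hinj2 : Function.Injective (ρ.rangeRestrict.subgroupComap A') := by
        intro a b hab
        apply Subtype.ext
        apply hinj'
        exact congrArg Subtype.val hab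
      exact isCyclic_of_injective (ρ.rangeRestrict.subgroupComap A') hinj2
    have hnirr : ¬ Irr ρ (A'.comap ρ.rangeRestrict) := fun h => hno ⟨_, hAn, hAc, h⟩
    unfold Irr at hnirr
    push Not at hnirr
    obtain ⟨W, hW, hWb, hWt⟩ := hnirr
    refine ⟨W, hWb, hWt, ?_⟩
    intro a ha v hv
    obtain ⟨g, rfl⟩ := hsurj a
    exact hW g (Subgroup.mem_comap.mpr ha) v hv
  · exact Group.isSolvable_of_surjective hsurj

end Cfsg.Agent.Lib.Helper80.HUP
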