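import Mathlib
import Cfsg.Agent.S0044
import Cfsg.Agent.S0009
import Cfsg.Agent.Lib.Helper84.PCoreBasic
import Cfsg.Agent.Lib.Helper49.HUP.Defs

/-!
# HUP (S3361): package [HH] -- a solvable group without odd normal subgroups has a normal
self-centralising 2-subgroup (its Fitting subgroup).
-/

set_option autoImplicit false

namespace Cfsg.Agent.Lib.Helper80.HUP

open Cfsg.Agent.Lib.Helper49.HUP

universe u v

theorem pkgHH : PkgHH.{v} := by
  intro X _ _ hsol hodd
  have hsol' : Group.IsSolvable X := hsol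
  refine ⟨Cfsg.fittingSubgroup X, ?_, ?_, Cfsg.Agent.S0044.result⟩
  · exact Subgroup.sSup_normal _ (fun _ h => h.1)
  · have h9 := Cfsg.Agent.S0009.result (G := X)
    have hle : Cfsg.fittingSubgroup X ≤ Cfsg.pCore 2 X := by
      rw [h9]
      apply iSup_le
      intro p
      by_cases hp2 : (p : ℕ) = 2
      · rw [hp2]
      · have hcard : Odd (Nat.card (Cfsg.pCore (p : ℕ) X)) := by
          have hpg := Cfsg.Agent.Lib.Helper84.pCore_isPGroup (p : ℕ) X
          have hfact : Fact (p : ℕ).Prime := ⟨p.2⟩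
          obtain ⟨n, hn⟩ := IsPGroup.iff_card.mp hpg
          rw [hn]
          exact Odd.pow (p.2.odd_of_ne_two hp2)
        have hnorm : (Cfsg.pCore (p : ℕ) X).Normal :=
          Subgroup.sSup_normal _ (fun _ h => h.1)
        have hbot : Cfsg.pCore (p : ℕ) X = ⊥ := hodd _ hnorm hcard
        rw [hbot]
        exact bot_le
    exact (Cfsg.Agent.Lib.Helper84.pCore_isPGroup 2 X).to_le hle

end Cfsg.Agent.Lib.Helper80.HUP
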